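import Cfsg.Agent.CosetEnum.Suz.Basic
import Cfsg.Agent.CosetEnum.SuzU43.TableChecks
import Cfsg.Agent.CosetEnum.SuzU43.H.Upper

/-!
The subgroup of the presented Suzuki group generated by a, b, c, d, f, g has index 22880.
-/

set_option autoImplicit false

namespace CfsgLib.CosetEnum.SuzU43

open Cfsg.Spor
open CfsgLib.CosetEnum.Suz (enc dec enc_lt dec_enc gen relList rels_eq gl gl_inv closure_gl sub_seven)

/-- the letters of the subgroup -/
def letters : List ℕ := [0, 1, 2, 3, 5, 6]

/-- the subgroup -/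
noncomputable def Hu : Subgroup Cfsg.Spor.Suz := Subgroup.closure {a | ∃ x ∈ letters, gl 7 x = a}

theorem gword_rels : ∀ w ∈ Tab.relWords, gword (gl 7) w = 1 := by
  refine gword_of_wordsFrom (gl 7) (fun y => y) (gl_inv 7)
    (base := relList.map (encWord enc fun y => y)) (by decide +kernel) ?_
  refine gword_relWord relList _ rels_eq enc (fun y => y) (MonoidHom.id _) (gl 7) ?_ ?_ <;> intro x
  · rw [gl, letterVal_lt gen (enc_lt x), gen, dec_enc]; rfl
  · rw [gl, letterVal_lt gen (enc_lt x), ← Suz.gen_inv, gen, dec_enc]; rfl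

theorem perm_ok : Tab.perm.OK where
  hn := H.n_pos
  letters := by decide +kernel
  point := Tab.points

theorem relWords_to_list :
    wordsFrom (fun y => y) Tab.relWords (relList.map (encWord enc fun y => y)) = true := by
  decide +kernel

/-- the action on 22880 points -/
noncomputable def pi : Cfsg.Spor.Suz →* Equiv.Perm (Fin Tab.perm.n) :=
  permHom perm_ok relList _ rels_eq enc (fun x => enc_lt x) (fun _ hx => hx) relWords_to_list

theorem pi_gl (x : ℕ) (hx : x < 7) : pi (gl 7 x) = perm_ok.sigma x := by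
  rw [gl, letterVal_lt gen hx]
  exact (permHom_of perm_ok relList _ rels_eq enc _ _ _ (dec x)).trans
    (congrArg perm_ok.sigma (show enc (dec x) = x by interval_cases x <;> rfl))

theorem fix_check : letters.all (fun x => x.blt 7 &&
    Nat.beq (runT Tab.perm.T Tab.perm.L [x] 0) 0) = true := by decide +kernel

theorem Hu_fix {a : Cfsg.Spor.Suz} (ha : a ∈ Hu) : pi a ⟨0, H.n_pos⟩ = ⟨0, H.n_pos⟩ := by
  induction ha using Subgroup.closure_induction with
  | mem _ h =>
    obtain ⟨x, hx, rfl⟩ := h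
    have hc := List.all_eq_true.1 fix_check x hx
    rw [Bool.and_eq_true] at hc
    have hx7 : x < 7 := by simpa [Nat.blt, Nat.ble_eq] using hc.1
    rw [pi_gl x hx7]
    refine (Equiv.Perm.inv_eq_iff_eq.1 (Fin.ext ?_)).symm
    rw [perm_ok.sigma_inv_apply (show x < Tab.perm.L from hx7)]
    exact Nat.eq_of_beq_eq_true hc.2
  | one => rw [map_one]; rfl
  | mul _ _ _ _ hp hq => rw [map_mul, Equiv.Perm.mul_apply, hq, hp]
  | inv _ _ hp => rw [map_inv, Equiv.Perm.inv_eq_iff_eq, hp]

theorem index_Hu : Hu.index = 22880 := by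
  have hw : wordsFrom (fun y => y) Tab.relWords (H.cert.words.take H.cert.nr) = true := by
    decide +kernel
  have hs : (H.cert.words.drop H.cert.nr).all (fun w => w.all fun x => letters.contains x) = true := by
    decide +kernel
  have hb := gword_of_wordsFrom (gl 7) (fun y => y) (gl_inv 7) hw gword_rels
  have hrel : ∀ (k : ℕ) (w : List ℕ), H.cert.words[k]? = some w → k < H.cert.nr →
      gword (gl 7) w = 1 := fun k w hk hlt =>
    hb w (List.mem_of_getElem? (i := k) (by rw [List.getElem?_take, if_pos hlt, hk]))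
  have hsub : ∀ (k : ℕ) (w : List ℕ), H.cert.words[k]? = some w → gword (gl 7) w ∈ Hu := by
    intro k w hk
    by_cases hlt : k < H.cert.nr
    · rw [hrel k w hk hlt]; exact one_mem _
    · have hm := List.all_eq_true.1 hs w (List.mem_of_getElem? (i := k - H.cert.nr)
        (by rw [List.getElem?_drop, show H.cert.nr + (k - H.cert.nr) = k by omega, hk]))
      exact gword_mem Hu (gl 7) fun x hx => Subgroup.subset_closure
        ⟨x, List.contains_iff_mem.1 (List.all_eq_true.1 hm x hx), rfl⟩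
  obtain ⟨e, -, -⟩ := exists_equiv H.facts H.n_pos H.node_zero H.rows perm_ok Hu
    (gl 7) (gl_inv 7) ((closure_gl 7).trans sub_seven) hrel hsub pi pi_gl (fun a ha => Hu_fix ha)
  rw [Subgroup.index_eq_card, Nat.card_congr e, Nat.card_fin]
  rfl

theorem printed_eq : (Subgroup.closure ({Cfsg.Spor.Suz.a, Cfsg.Spor.Suz.b, Cfsg.Spor.Suz.c,
    Cfsg.Spor.Suz.d, Cfsg.Spor.Suz.f, Cfsg.Spor.Suz.g} : Set (FreeGroup Cfsg.Spor.Suz.Gen))).map
      (PresentedGroup.mk (Cfsg.Spor.coxRelators Cfsg.Spor.Suz.edges ∪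
        {r | r ∈ Cfsg.Spor.Suz.extra})) = Hu := by
  rw [MonoidHom.map_closure, Hu]
  refine congrArg Subgroup.closure (Set.ext fun a => ?_)
  have e : ∀ x : Cfsg.Spor.Suz.Gen, PresentedGroup.mk (Cfsg.Spor.coxRelators Cfsg.Spor.Suz.edges ∪
      {r | r ∈ Cfsg.Spor.Suz.extra}) (FreeGroup.of x) = gl 7 (enc x) := fun x => by
    rw [gl, letterVal_lt gen (enc_lt x), gen, dec_enc]; rfl
  simp only [Set.image_insert_eq, Set.image_singleton, Set.mem_insert_iff, Set.mem_singleton_iff,
    Set.mem_ofPred_eq, Cfsg.Spor.Suz.a, Cfsg.Spor.Suz.b, Cfsg.Spor.Suz.c, Cfsg.Spor.Suz.d,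
    Cfsg.Spor.Suz.f, Cfsg.Spor.Suz.g, e]
  constructor
  · rintro (rfl | rfl | rfl | rfl | rfl | rfl)
    exacts [⟨0, by decide, rfl⟩, ⟨1, by decide, rfl⟩, ⟨2, by decide, rfl⟩, ⟨3, by decide, rfl⟩,
      ⟨5, by decide, rfl⟩, ⟨6, by decide, rfl⟩]
  · rintro ⟨x, hx, rfl⟩
    simp only [letters, List.mem_cons, List.not_mem_nil, or_false] at hx
    rcases hx with rfl | rfl | rfl | rfl | rfl | rfl <;> simp [enc]

end CfsgLib.CosetEnum.SuzU43
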