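import Cfsg.Agent.CosetEnum.SuzU43.H.Data

/-! Generated: table, words and orbit labels. -/

set_option autoImplicit false
set_option maxRecDepth 100000

namespace CfsgLib.CosetEnum.SuzU43.Tab

open CfsgLib.CosetEnum

/-- the relators as words -/
def relWords : List (List ℕ) := [[0, 0], [1, 1], [2, 2], [3, 3], [4, 4], [5, 5], [6, 6], [0, 1, 0, 1, 0, 1, 0, 1, 0, 1], [0, 2, 0, 2], [0, 3, 0, 3], [0, 4, 0, 4], [0, 5, 0, 5], [0, 6, 0, 6], [1, 2, 1, 2, 1, 2], [1, 3, 1, 3], [1, 4, 1, 4], [1, 5, 1, 5, 1, 5], [1, 6, 1, 6, 1, 6], [2, 3, 2, 3, 2, 3, 2, 3, 2, 3, 2, 3, 2, 3, 2, 3], [2, 4, 2, 4], [2, 5, 2, 5], [2, 6, 2, 6], [3, 4, 3, 4, 3, 4], [3, 5, 3, 5], [3, 6, 3, 6], [4, 5, 4, 5], [4, 6, 4, 6], [5, 6, 5, 6, 5, 6, 5, 6], [0, 3, 2, 3, 2, 3, 2, 3, 2], [0, 6, 5,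 6, 5], [0, 1, 2, 5, 0, 1, 2, 5, 0, 1, 2, 5, 0, 1, 2, 5, 0, 1, 2, 5], [1, 5, 6, 1, 5, 6, 1, 5, 6, 1, 5, 6, 1, 5, 6], [1, 2, 3, 2, 3, 1, 2, 3, 2, 3, 1, 2, 3, 2, 3, 1, 2, 3, 2, 3, 1, 2, 3, 2, 3, 4, 1, 2, 3, 2, 3, 1, 2, 3, 2, 3, 1, 2, 3, 2, 3, 1, 2, 3, 2, 3, 1, 2, 3, 2, 3, 4, 1, 2, 3, 2, 3, 1, 2, 3, 2, 3, 1, 2, 3, 2, 3, 1, 2, 3, 2, 3, 1, 2, 3, 2, 3, 4]]

/-- the table -/
noncomputable abbrev perm : PermData := ⟨CfsgLib.CosetEnum.SuzU43.H.cert.L, CfsgLib.CosetEnum.SuzU43.H.cert.n, CfsgLib.CosetEnum.SuzU43.H.cert.iv, relWords, CfsgLib.CosetEnum.SuzU43.H.cert.T, CfsgLib.CosetEnum.SuzU43.H.par⟩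

end CfsgLib.CosetEnum.SuzU43.Tab
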